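import Cfsg.Agent.FT.PF3

/-! Bridges between the ambient form of Peterfalvi, Section 3, and `Cfsg.IsCyclicTIFamily`. -/

set_option autoImplicit false

open Pointwise Cfsg Cfsg.Lib.Solv
open scoped ComplexConjugate

namespace Cfsg.Lib.FT

variable {G : Type*} [Group G] {L W W₁ W₂ : Subgroup G}

theorem selfNorm_dprod (h : IsSelfNormalizingCyclic W₁ W₂) : DProd W₁ W₂ (W₁ ⊔ W₂) :=
  DProd.of_eq_sup (fun b hb => mem_cent.mpr fun a ha => h.2.2.2.1 a ha b hb) h.2.2.1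

theorem selfNorm_comm (h : IsSelfNormalizingCyclic W₁ W₂) : IsMulCommutative ↥(W₁ ⊔ W₂) :=
  cyclic_abelian h.2.2.2.2.1

variable [Finite G]

theorem selfNorm_normedTI (h : IsSelfNormalizingCyclic W₁ W₂) :
    NormedTI (cyclicTIset (W₁ ⊔ W₂) W₁ W₂) ⊤ (W₁ ⊔ W₂) := by
  have hW := selfNorm_dprod h
  obtain ⟨h1, h2, h3, h4, h5, h6⟩ := h
  have hc := cyclic_abelian h5
  refine ⟨?_, le_top, fun g hg a ha => ?_, fun g _ a ha hga => ?_⟩
  · obtain ⟨x, hx, hx1⟩ := trivgPn.mp h1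
    obtain ⟨y, hy, hy1⟩ := trivgPn.mp h2
    exact ⟨_, mul_mem_cyclicTIset hW hx hx1 hy hy1⟩
  · rwa [abelian_comm hc hg ha.1, mul_inv_cancel_right]
  · have hz : ∀ b : G, Subgroup.zpowers (g * b * g⁻¹) = g •ᶜ Subgroup.zpowers b := fun b => by
      rw [show g •ᶜ Subgroup.zpowers b =
        (Subgroup.zpowers b).map (MulAut.conj g).toMonoidHom from rfl, MonoidHom.map_zpowers]
      rfl
    have hga' : Subgroup.zpowers (g * a * g⁻¹) = Subgroup.zpowers a := by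
      refine (eq_subG_cyclic h5 ((Subgroup.zpowers_le).mpr hga.1)
        ((Subgroup.zpowers_le).mpr ha.1)).mpr ?_
      rw [Nat.card_zpowers, Nat.card_zpowers, orderJ]
    rw [← h6 {b | Subgroup.zpowers b = Subgroup.zpowers a} ?_ ⟨a, rfl⟩]
    · refine mem_normalizer_set.mpr fun b hb => ?_
      change Subgroup.zpowers b = Subgroup.zpowers a at hb
      change Subgroup.zpowers _ = Subgroup.zpowers a
      rw [hz, hb, ← hz, hga']
    · intro b hb
      change Subgroup.zpowers b = Subgroup.zpowers a at hb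
      have e : ∀ X : Subgroup G, b ∈ X ↔ a ∈ X := fun X => by
        rw [← Subgroup.zpowers_le, hb, Subgroup.zpowers_le]
      have := mem_cyclicTIset.mp ha
      exact mem_cyclicTIset.mpr (by simpa only [e] using this)

theorem cycTIhat_resHat (hW : DProd W₁ W₂ W) (k : Hat W) :
    cycTIhat hW (resHat hW.le_left k) (resHat hW.le_right k) = k :=
  linCF_injective (by rw [linCF_cycTIhat, cycTIirr_resHat hW])

theorem cycTIhat_inj (hW : DProd W₁ W₂ W) {i i' : Hat W₁} {j j' : Hat W₂} :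
    cycTIhat hW i j = cycTIhat hW i' j' ↔ i = i' ∧ j = j' := by
  rw [← cycTIirr_inj hW, ← linCF_cycTIhat hW, ← linCF_cycTIhat hW, linCF_injective.eq_iff]

theorem resHat_cycTIhat (hW : DProd W₁ W₂ W) (i : Hat W₁) (j : Hat W₂) :
    resHat hW.le_left (cycTIhat hW i j) = i ∧ resHat hW.le_right (cycTIhat hW i j) = j :=
  (cycTIhat_inj hW).mp (cycTIhat_resHat hW _)

theorem resHat_inj (hW : DProd W₁ W₂ W) {k k' : Hat W} :
    resHat hW.le_left k = resHat hW.le_left k' ∧ resHat hW.le_right k = resHat hW.le_right k' ↔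
      k = k' := by
  rw [← cycTIhat_inj hW, cycTIhat_resHat, cycTIhat_resHat]

theorem cycTIhat_mul (hW : DProd W₁ W₂ W) (i i' : Hat W₁) (j j' : Hat W₂) :
    cycTIhat hW (i * i') (j * j') = cycTIhat hW i j * cycTIhat hW i' j' :=
  linCF_injective (by simp only [linCF_mul, linCF_cycTIhat, cycTIirr_mul hW])

theorem cycTIhat_one (hW : DProd W₁ W₂ W) : cycTIhat hW 1 1 = 1 :=
  linCF_injective (by rw [linCF_cycTIhat, cycTIirr00 hW, linCF_1])

omit [Finite G] in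
theorem resHat_mul {V : Subgroup G} (h : V ≤ W) (k k' : Hat W) :
    resHat h (k * k') = resHat h k * resHat h k' := rfl

omit [Finite G] in
theorem resHat_one {V : Subgroup G} (h : V ≤ W) : resHat h (1 : Hat W) = 1 := rfl

omit [Finite G] in
theorem resHat_eq_iff {V : Subgroup G} (h : V ≤ W) {k k' : Hat W} :
    resHat h k = resHat h k' ↔ ∀ w : W, (w : G) ∈ V → k w = k' w :=
  ⟨fun e w hw => DFunLike.congr_fun e ⟨w, hw⟩,
    fun e => MonoidHom.ext fun v => e ⟨v, h v.2⟩ v.2⟩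

omit [Finite G] in
theorem resHat_eq_one_iff {V : Subgroup G} (h : V ≤ W) {k : Hat W} :
    resHat h k = 1 ↔ ∀ w : W, (w : G) ∈ V → k w = 1 := resHat_eq_iff h (k' := 1)

omit [Finite G] in
theorem resHat_mul_inv_eq_one_iff {V : Subgroup G} (h : V ≤ W) {k k' : Hat W} :
    (∀ w : W, (w : G) ∈ V → (k * k'⁻¹) w = 1) ↔ resHat h k = resHat h k' := by
  rw [resHat_eq_iff]
  simp only [MonoidHom.mul_apply, MonoidHom.inv_apply, mul_inv_eq_one]

theorem cycTIirr_coe (hW : DProd W₁ W₂ W) (i : Hat W₁) (j : Hat W₂) (w : W) :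
    cycTIirr i j w = cycTIhat hW i j w := by
  rw [← linCF_cycTIhat hW, linCF_coe]

theorem cfCycTI_coe (hW : DProd W₁ W₂ W) (i : Hat W₁) (j : Hat W₂) :
    (fun w : W => cfCyclicTIset i j w) = fun w : W => 1 - (cycTIhat hW i 1 w : ℂ) -
      (cycTIhat hW 1 j w : ℂ) + (cycTIhat hW i 1 w : ℂ) * (cycTIhat hW 1 j w : ℂ) := by
  funext w
  rw [cfCycTI_E hW, cycTIirr_split hW i j]
  simp only [Pi.add_apply, Pi.sub_apply, Pi.mul_apply, cf1_of_mem w.2, cycTIirr_coe hW]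

theorem eq_cycTIhat_left (hW : DProd W₁ W₂ W) {φ : Hat W}
    (h : ∀ w : W, (w : G) ∈ W₂ → φ w = 1) : φ = cycTIhat hW (resHat hW.le_left φ) 1 := by
  rw [← (resHat_eq_one_iff hW.le_right).mpr h, cycTIhat_resHat]

theorem eq_cycTIhat_right (hW : DProd W₁ W₂ W) {ψ : Hat W}
    (h : ∀ w : W, (w : G) ∈ W₁ → ψ w = 1) : ψ = cycTIhat hW 1 (resHat hW.le_right ψ) := by
  rw [← (resHat_eq_one_iff hW.le_left).mpr h, cycTIhat_resHat]

theorem cycTIhat_split (hW : DProd W₁ W₂ W) (i : Hat W₁) (j : Hat W₂) :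
    cycTIhat hW i 1 * cycTIhat hW 1 j = cycTIhat hW i j := by
  rw [← cycTIhat_mul, mul_one, one_mul]

theorem mem_Dirr_top {φ : G → ℂ} :
    φ ∈ Dirr (⊤ : Subgroup G) ↔ IsIrrCharacter G φ ∨ IsIrrCharacter G (-φ) := by
  rw [mem_Dirr, mem_Irr_top, mem_Irr_top]

namespace CycTIFamily

variable {χ : Hat W₁ → Hat W₂ → G → ℂ}

theorem apply_eq_sum' (hχ : CycTIFamily L W W₁ W₂ χ) (hW : DProd W₁ W₂ W)
    (hc : IsMulCommutative W) (hle : W ≤ L) {ψ : G → ℂ}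
    (hψ : ψ ∈ CF L) {z : G} (hz : z ∈ cyclicTIset W W₁ W₂) :
    ψ z = ∑ i : Hat W₁, ∑ j : Hat W₂, FT.dot L ψ (χ i j) * cycTIirr i j z := by
  have hθ : res W ψ - ∑ i : Hat W₁, ∑ j : Hat W₂, FT.dot L ψ (χ i j) • cycTIirr i j ∈ CF W :=
    sub_mem (res_mem_CF hle hψ) (Submodule.sum_mem _ fun i _ => Submodule.sum_mem _ fun j _ =>
      Submodule.smul_mem _ _ (cycTIirr_mem_CF hW i j))
  have := vanish_of_ortho_cfCycTI hW hc hθ (fun i j => ?_) hz
  · rw [Pi.sub_apply, res_of_mem _ hz.1, sub_eq_zero] at this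
    simpa only [Finset.sum_apply, Pi.smul_apply, smul_eq_mul] using this
  · rw [dot_sub_left, ← dot_ind_right hle hψ, hχ.dot_ind]
    simp [cfCyclicTIset, dot_add_right, dot_sub_right, dot_sum_left, dot_smul_left,
      cfdot_cycTIirr hW, ite_and]

theorem exchange' (hχ : CycTIFamily L W W₁ W₂ χ) (hW : DProd W₁ W₂ W) (hle : W ≤ L) {ψ : G → ℂ}
    (hψ : ψ ∈ CF L) (hV : ∀ x ∈ cyclicTIset W W₁ W₂, ψ x = 0) (i₁ i₂ : Hat W₁) (j₁ j₂ : Hat W₂) :
    FT.dot L ψ (χ i₁ j₁) + FT.dot L ψ (χ i₂ j₂) =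
      FT.dot L ψ (χ i₁ j₂) + FT.dot L ψ (χ i₂ j₁) := by
  have e : ∀ (i : Hat W₁) (j : Hat W₂), FT.dot L ψ (χ 1 1) - FT.dot L ψ (χ i 1) -
      FT.dot L ψ (χ 1 j) + FT.dot L ψ (χ i j) = 0 := fun i j => by
    rw [← hχ.dot_ind, dot_ind_right hle hψ, dot_eq_zero_comm]
    exact dot_eq_zero_of_disjoint (cfCycTI_on hW i j).2
      fun x hx => by rw [res_of_mem _ hx.1, hV x hx]
  linear_combination e i₁ j₁ + e i₂ j₂ - e i₁ j₂ - e i₂ j₁

end CycTIFamily

theorem cycTIFamily_of_isCyclicTIFamily {G : Type*} [Group G] [Fintype G] {W₁ W₂ : Subgroup G}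
    (hW : DProd W₁ W₂ (W₁ ⊔ W₂)) {χ : Hat (W₁ ⊔ W₂) → G → ℂ} (h : IsCyclicTIFamily W₁ W₂ χ) :
    CycTIFamily ⊤ (W₁ ⊔ W₂) W₁ W₂ fun i j => χ (cycTIhat hW i j) where
  dirr i j := mem_Dirr_top.mpr (h.irr_or_neg _)
  dot i j i' j' := by
    rw [dot_top_eq_classInner, h.orthonormal]
    simp only [cycTIhat_inj hW]
  one := by rw [cycTIhat_one, h.map_one, cf1_top]; rfl
  ind i j := by
    have e1 : χ 1 = cf1 ⊤ := by rw [h.map_one, cf1_top]; rfl
    by_cases hi : i = 1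
    · rw [hi, cfCycTI_left, map_zero, cycTIhat_one, e1]; abel
    by_cases hj : j = 1
    · rw [hj, cfCycTI_right, map_zero, cycTIhat_one, e1]; abel
    rw [ind_top_eq_indFun, cfCycTI_coe hW, h.induced_eq, cycTIhat_split, cf1_top]
    · rfl
    · rw [← cycTIhat_one hW, Ne, cycTIhat_inj]; tauto
    · rw [← cycTIhat_one hW, Ne, cycTIhat_inj]; tauto
    · exact (resHat_eq_one_iff hW.le_right).mp (resHat_cycTIhat hW i 1).2
    · exact (resHat_eq_one_iff hW.le_left).mp (resHat_cycTIhat hW 1 j).1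

theorem isCyclicTIFamily_cycTIeta {G : Type*} [Group G] [Fintype G] {W₁ W₂ : Subgroup G}
    (h : CyclicTIHyp ⊤ (W₁ ⊔ W₂) W₁ W₂) :
    IsCyclicTIFamily W₁ W₂ fun ω =>
      cycTIeta ⊤ (resHat h.dprod.le_left ω) (resHat h.dprod.le_right ω) where
  irr_or_neg ω := mem_Dirr_top.mp (cycTIiso_dirr h _ _)
  orthonormal ω ω' := by
    rw [← dot_top_eq_classInner, cfdot_cycTIiso h]
    simp only [resHat_inj h.dprod]
  map_one := by rw [resHat_one, resHat_one, cycTIeta00 h, cf1_top]; rfl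
  eq_on ω w h1 h2 := by
    rw [cycTIeta_restrict h _ _ (mem_cyclicTIset.mpr ⟨w.2, h1, h2⟩), cycTIirr_resHat h.dprod,
      linCF_coe]
  induced_eq φ ψ _ _ h1 h2 := by
    have := cfInd_cfCyclicTIset h (resHat h.dprod.le_left φ) (resHat h.dprod.le_right ψ)
    rw [ind_top_eq_indFun, cfCycTI_coe h.dprod, ← eq_cycTIhat_left h.dprod h1,
      ← eq_cycTIhat_right h.dprod h2, cf1_top] at this
    rw [this, resHat_mul, resHat_mul, (resHat_eq_one_iff _).mpr h1, (resHat_eq_one_iff _).mpr h2,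
      mul_one, one_mul]
    rfl

theorem eq_eta_of_isCyclicTIFamily {G : Type*} [Group G] [Fintype G] {W₁ W₂ : Subgroup G}
    (h : CyclicTIHyp ⊤ (W₁ ⊔ W₂) W₁ W₂) {χ : Hat (W₁ ⊔ W₂) → G → ℂ}
    (hχ : IsCyclicTIFamily W₁ W₂ χ) (ω : Hat (W₁ ⊔ W₂)) :
    χ ω = cycTIeta ⊤ (resHat h.dprod.le_left ω) (resHat h.dprod.le_right ω) := by
  rw [(cycTIFamily_of_isCyclicTIFamily h.dprod hχ).eq_eta h, cycTIhat_resHat]

end Cfsg.Lib.FT
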